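import Mathlib
import Cfsg.Prelude.Def_OddOrderLocal

/-!
S2536 (Hall–Thompson for symmetric groups), package PK3 (helper72, for helper73):
a Hall `π`-subgroup `H` of `Sym(Ω)` stabilizing a finset `s` restricts to a Hall `π`-subgroup
of `Sym(s)`.
-/

set_option autoImplicit false

namespace Cfsg.Agent.Lib.Helper72.HT

open Cfsg

/-- The setwise stabilizer of a finset in the symmetric group. -/
def stabSub {Ω : Type*} (s : Finset Ω) : Subgroup (Equiv.Perm Ω) where
  carrier := {σ | ∀ x, σ x ∈ s ↔ x ∈ s}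
  mul_mem' := by
    intro a b ha hb x
    show a (b x) ∈ s ↔ x ∈ s
    rw [ha (b x), hb x]
  one_mem' := by
    intro x
    exact Iff.rfl
  inv_mem' := by
    intro a ha x
    have h := ha (a⁻¹ x)
    have e : a (a⁻¹ x) = x := Equiv.apply_symm_apply a x
    rw [e] at h
    exact h.symm

theorem mem_stabSub {Ω : Type*} {s : Finset Ω} {σ : Equiv.Perm Ω} :
    σ ∈ stabSub s ↔ ∀ x, σ x ∈ s ↔ x ∈ s := Iff.rfl

/-- Restriction of the setwise stabilizer of `s` to `Sym(s)`. -/
def restrictHom {Ω : Type*} (s : Finset Ω) : ↥(stabSub s) →* Equiv.Perm {x // x ∈ s} where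
  toFun σ := (σ : Equiv.Perm Ω).subtypePerm σ.2
  map_one' := by
    ext x
    rfl
  map_mul' := by
    intro a b
    ext x
    rfl

theorem restrictHom_apply {Ω : Type*} (s : Finset Ω) (σ : ↥(stabSub s)) (x : {x // x ∈ s}) :
    ((restrictHom s σ x : {x // x ∈ s}) : Ω) = (σ : Equiv.Perm Ω) x := rfl

theorem restrictHom_surjective {Ω : Type*} [DecidableEq Ω] (s : Finset Ω) :
    Function.Surjective (restrictHom s) := by
  intro τ
  refine ⟨⟨Equiv.Perm.ofSubtype τ, Equiv.Perm.ofSubtype_apply_mem_iff_mem τ⟩, ?_⟩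
  exact Equiv.Perm.subtypePerm_ofSubtype τ

/-- **PK3**: restriction of a Hall `π`-subgroup of `Sym(Ω)` to an invariant finset. -/
theorem hall_restrict {Ω : Type*} [Fintype Ω] [DecidableEq Ω] {π : Set ℕ}
    {H : Subgroup (Equiv.Perm Ω)} (hH : Cfsg.IsPiHall π H) (s : Finset Ω)
    (hs : ∀ h ∈ H, ∀ x, h x ∈ s ↔ x ∈ s) :
    ∃ H' : Subgroup (Equiv.Perm {x // x ∈ s}), Cfsg.IsPiHall π H' ∧
      ∀ h' : Equiv.Perm {x // x ∈ s}, h' ∈ H' ↔
        ∃ h ∈ H, ∀ x : {x // x ∈ s}, ((h' x : {x // x ∈ s}) : Ω) = h x := by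
  classical
  have hHK : H ≤ stabSub s := fun h hh => hs h hh
  refine ⟨(H.subgroupOf (stabSub s)).map (restrictHom s), ⟨?_, ?_⟩, ?_⟩
  · intro p hp hdvd
    apply hH.1 p hp
    have h1 : Nat.card ↥((H.subgroupOf (stabSub s)).map (restrictHom s)) ∣
        Nat.card ↥(H.subgroupOf (stabSub s)) := Subgroup.card_map_dvd _ _
    have h2 : Nat.card ↥(H.subgroupOf (stabSub s)) = Nat.card ↥H :=
      Nat.card_congr (Subgroup.subgroupOfEquivOfLe hHK).toEquiv
    rw [h2] at h1
    exact hdvd.trans h1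
  · intro p hp hpπ hdvd
    apply hH.2 p hp hpπ
    have h1 : ((H.subgroupOf (stabSub s)).map (restrictHom s)).index ∣
        (H.subgroupOf (stabSub s)).index :=
      Subgroup.index_map_dvd _ (restrictHom_surjective s)
    have h2 : (H.subgroupOf (stabSub s)).index ∣ H.index :=
      Subgroup.relIndex_dvd_index_of_le hHK
    exact hdvd.trans (h1.trans h2)
  · intro h'
    constructor
    · rintro ⟨k, hk, rfl⟩
      exact ⟨(k : Equiv.Perm Ω), hk, fun x => rfl⟩
    · rintro ⟨h, hh, hx⟩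
      refine ⟨⟨h, hHK hh⟩, hh, ?_⟩
      ext x
      rw [restrictHom_apply]
      exact (hx x).symm

end Cfsg.Agent.Lib.Helper72.HT
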